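import Mathlib
import Cfsg.Agent.TcData.ON.Cov3.Rel0

set_option autoImplicit false
set_option Elab.async false
set_option maxRecDepth 100000
set_option linter.all false

namespace Cfsg.Agent.TcData.ON.Cov3

open Cfsg.Spor Cfsg.Agent.Lib.TcFacts Cfsg.Agent.Lib.TcBits Cfsg.Agent.Lib.TcPres Cfsg.Spor.ON Cfsg.Agent.TcData.ON

theorem hc : ∀ x ∈ nodesL, ∀ y ∈ nodesL, ∀ j, j < 19 →
    chkW ((FreeGroup.of x * FreeGroup.of y) ^ coxLabel edges x y) j = true := by
  intro x hx y hy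
  simp only [nodesL, List.mem_cons, List.not_mem_nil, or_false] at hx hy
  rcases hx with rfl | rfl | rfl | rfl | rfl | rfl <;> rcases hy with rfl | rfl | rfl | rfl | rfl | rfl
  exacts [c_a_a,
    c_a_b,
    c_a_c,
    c_a_d,
    c_a_e,
    c_a_f,
    c_b_a,
    c_b_b,
    c_b_c,
    c_b_d,
    c_b_e,
    c_b_f,
    c_c_a,
    c_c_b,
    c_c_c,
    c_c_d,
    c_c_e,
    c_c_f,
    c_d_a,
    c_d_b,
    c_d_c,
    c_d_d,
    c_d_e,
    c_d_f,
    c_e_a,
    c_e_b,
    c_e_c,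
    c_e_d,
    c_e_e,
    c_e_f,
    c_f_a,
    c_f_b,
    c_f_c,
    c_f_d,
    c_f_e,
    c_f_f]

theorem he0 : ∀ i, i < extra3.length → ∀ j, j < 19 → chkW (extra3.getD i 1) j = true := by
  intro i hi
  have hl : extra3.length = 14 := rfl
  rw [hl] at hi
  interval_cases i
  exacts [e_0, e_1, e_2, e_3, e_4, e_5, e_6, e_7, e_8, e_9, e_10, e_11, e_12, e_13]

theorem he : ∀ r ∈ extra3, ∀ j, j < 19 → chkW r j = true := by
  intro r hr
  obtain ⟨i, hi, rfl⟩ := List.getElem_of_mem hr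
  have := he0 i hi
  rwa [List.getD_eq_getElem _ _ hi] at this

theorem hR : ∀ r ∈ R3, FreeGroup.lift (genPerm pr) r = 1 :=
  lift_of_checks hnodes hv (fun x hx y hy => of_chkW (hc x hx y hy)) (fun r hr => of_chkW (he r hr))

/-- The word for the central element moves the first point. -/
theorem z_moves : wordApply (sgnProg pr) zz.toWord 1 ≠ 1 := by decide +kernel

end Cfsg.Agent.TcData.ON.Cov3
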