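import Mathlib
import Cfsg.Agent.TcData.ON.Cov3.Pr_g
import Cfsg.Agent.TcData.ON.Cov3.Pr_a
import Cfsg.Agent.TcData.ON.Cov3.Pr_b
import Cfsg.Agent.TcData.ON.Cov3.Pr_c
import Cfsg.Agent.TcData.ON.Cov3.Pr_d
import Cfsg.Agent.TcData.ON.Cov3.Pr_e
import Cfsg.Agent.TcData.ON.Cov3.Pr_f
import Cfsg.Agent.TcData.ON.Common

set_option autoImplicit false
set_option Elab.async false
set_option maxRecDepth 100000
set_option linter.all false

namespace Cfsg.Agent.TcData.ON.Cov3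

open Cfsg.Spor Cfsg.Agent.Lib.TcFacts Cfsg.Agent.Lib.TcBits Cfsg.Agent.Lib.TcPres Cfsg.Spor.ON Cfsg.Agent.TcData.ON

/-- The central element of the cover, as a word. -/
noncomputable def zz : FreeGroup Gen := (b * c * d * g) ^ 5

/-- The further relators of the cover. -/
noncomputable def extra3 : List (FreeGroup Gen) := [
  (a * f) * ((g ^ 2)⁻¹),
  (a * f) * (((c * d) ^ 4)⁻¹),
  c * ((d * g * d * g)⁻¹ * c * (d * g * d * g)),
  d * ((c * g * c * g)⁻¹ * d * (c * g * c * g)),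
  g * b * (c⁻¹ * g * c) * (b⁻¹ * g * b) * (c⁻¹ * g * c) * zz⁻¹,
  g * e * (d⁻¹ * g * d) * (e⁻¹ * g * e) * (d⁻¹ * g * d) * zz⁻¹,
  zz ^ 3,
  zz * g * zz⁻¹ * g⁻¹,
  zz * a * zz⁻¹ * a⁻¹,
  zz * b * zz⁻¹ * b⁻¹,
  zz * c * zz⁻¹ * c⁻¹,
  zz * d * zz⁻¹ * d⁻¹,
  zz * e * zz⁻¹ * e⁻¹,
  zz * f * zz⁻¹ * f⁻¹]

/-- The relators of the cover. -/
abbrev R3 : Set (FreeGroup Gen) := coxRelators edges ∪ {r | r ∈ extra3}

/-- The programs of the generators. -/
noncomputable def pr : Gen → List (ℕ × ℕ)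
  | .g => pr_g
  | .a => pr_a
  | .b => pr_b
  | .c => pr_c
  | .d => pr_d
  | .e => pr_e
  | .f => pr_f

theorem hv : ∀ x, validProg (2 ^ 19) (pr x) = true := by
  intro x; cases x <;> decide +kernel

/-- The check of a relator on a slice. -/
noncomputable def chkW (r : FreeGroup Gen) (j : ℕ) : Bool :=
  Nat.beq (wordApply (sgnProg pr) r.toWord (slice 19 j)) (slice 19 j)

theorem of_chkW {r : FreeGroup Gen} (h : ∀ j, j < 19 → chkW r j = true) :
    ∀ j, j < 19 → wordApply (sgnProg pr) r.toWord (slice 19 j) = slice 19 j :=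
  fun j hj => Nat.eq_of_beq_eq_true (h j hj)

end Cfsg.Agent.TcData.ON.Cov3
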